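import Mathlib
import Cfsg.Agent.S0023
import Cfsg.Agent.H575.Chain
import Cfsg.Agent.H987.Tower
import Cfsg.Agent.H258.Sub
import Cfsg.Agent.OddOrderLocal.Thm38

/-!
# Existence of towers
-/

set_option autoImplicit false
set_option linter.style.haveILetI false

open Subgroup Cfsg

namespace Cfsg.Agent.H987.Tower

open Cfsg.Agent.H575.Chain Cfsg.Agent.H258.Sub

universe u

/-! ### products of chains -/

section prod

variable {G H : Type*} [Group G] [Group H]

theorem lcs_prod_le (S : Subgroup G) (T : Subgroup H) (k : ℕ) :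
    (S.prod T).lowerCentralSeries k ≤ (S.lowerCentralSeries k).prod (T.lowerCentralSeries k) := by
  induction k with
  | zero => exact le_rfl
  | succ k ih =>
    rw [Subgroup.lowerCentralSeries_succ]
    refine (Subgroup.commutator_mono ih le_rfl).trans ?_
    exact (Subgroup.commutator_prod_prod _ _ _ _).le

theorem FChain.prod {n : ℕ} (hG : FChain n G) (hH : FChain n H) : FChain n (G × H) := by
  obtain ⟨F, h0, h1, h2, h3, h4⟩ := hG
  obtain ⟨E, e0, e1, e2, e3, e4⟩ := hH
  refine ⟨fun i => (F i).prod (E i), ?_, ?_, fun i j hij => Subgroup.prod_mono (h2 hij) (e2 hij),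
    fun i => ?_, fun i => ?_⟩
  · show (F 0).prod (E 0) = ⊥
    rw [h0, e0, Subgroup.bot_prod_bot]
  · show (F (Fin.last n)).prod (E (Fin.last n)) = ⊤
    rw [h1, e1, Subgroup.top_prod_top]
  · haveI := h3 i
    haveI := e3 i
    exact Subgroup.prod_normal _ _
  · obtain ⟨k, hk⟩ := h4 i
    obtain ⟨l, hl⟩ := e4 i
    refine ⟨max k l, (lcs_prod_le _ _ _).trans (Subgroup.prod_mono ?_ ?_)⟩
    · exact (Subgroup.lowerCentralSeries_antitone _ (le_max_left k l)).trans hk
    · exact (Subgroup.lowerCentralSeries_antitone _ (le_max_right k l)).trans hl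

/-- `FChain` passes to the range of a homomorphism with larger kernel -/
theorem fchain_of_ker_le {n : ℕ} {G H L : Type*} [Group G] [Group H] [Group L] (f : G →* H)
    (hf : Function.Surjective f) (g : G →* L) (hg : g.ker ≤ f.ker) (h : FChain n L) : FChain n H := by
  obtain ⟨F, h0, h1, h2, h3, h4⟩ := h
  refine ⟨fun i => ((F i).comap g).map f, ?_, ?_, fun i j hij => Subgroup.map_mono
    (Subgroup.comap_mono (h2 hij)), fun i => ((h3 i).comap g).map f hf, fun i => ?_⟩
  · show ((F 0).comap g).map f = ⊥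
    rw [h0, ← le_bot_iff, Subgroup.map_le_iff_le_comap, MonoidHom.comap_bot]
    exact hg
  · show ((F (Fin.last n)).comap g).map f = ⊤
    rw [h1, Subgroup.comap_top, ← MonoidHom.range_eq_map, MonoidHom.range_eq_top.mpr hf]
  · obtain ⟨k, hk⟩ := h4 i
    refine ⟨k, ?_⟩
    rw [← Subgroup.map_lowerCentralSeries]
    exact Subgroup.map_mono ((lcs_comap_le g _ k).trans (Subgroup.comap_mono hk))

/-- finitely many quotients with a chain of length `m` -/
theorem exists_prod {ι : Type*} {G : Type u} [Group G] {m : ℕ} (D : ι → Subgroup G)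
    (s : Finset ι) (h : ∀ i ∈ s, ∃ (L : Type u) (_ : Group L) (f : G →* L), FChain m L ∧ f.ker ≤ D i) :
    ∃ (L : Type u) (_ : Group L) (f : G →* L), FChain m L ∧ ∀ i ∈ s, f.ker ≤ D i := by
  classical
  induction s using Finset.induction_on with
  | empty =>
    refine ⟨PUnit, inferInstance, 1, ?_, by simp⟩
    exact ⟨fun i => ⊤, Subsingleton.elim _ _, rfl, fun _ _ _ => le_rfl, fun _ => inferInstance,
      fun i => ⟨0, le_rfl⟩⟩
  | insert a s ha ih =>
    obtain ⟨L, i1, f, hf, hf'⟩ := ih fun i hi => h i (Finset.mem_insert_of_mem hi)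
    obtain ⟨M, i2, g, hg, hg'⟩ := h a (Finset.mem_insert_self _ _)
    refine ⟨L × M, inferInstance, f.prod g, FChain.prod hf hg, ?_⟩
    have e : (f.prod g).ker = f.ker ⊓ g.ker := by
      ext x
      simp [MonoidHom.mem_ker, Prod.ext_iff]
    intro i hi
    rw [e]
    rcases Finset.mem_insert.mp hi with rfl | hi
    · exact inf_le_right.trans hg'
    · exact inf_le_left.trans (hf' i hi)

end prod

/-! ### kernels of a tower -/

section kernels

variable {G H : Type*} [Group G] [Group H]

theorem K_le (P : ℕ → Subgroup G) (i : ℕ) : K P i ≤ P i := by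
  cases i with
  | zero => exact bot_le
  | succ i => exact fun x hx => hx.1

theorem mem_norm_kerOn {X Y T : Subgroup G} {g : G} (hX : g ∈ normalizer (X : Set G))
    (hY : g ∈ normalizer (Y : Set G)) (hT : g ∈ normalizer (T : Set G)) :
    g ∈ normalizer (kerOn X Y T : Set G) := by
  have key : ∀ g : G, g ∈ normalizer (X : Set G) → g ∈ normalizer (Y : Set G) →
      g ∈ normalizer (T : Set G) → ∀ x ∈ kerOn X Y T, g * x * g⁻¹ ∈ kerOn X Y T := by
    intro g hX hY hT x hx
    refine ⟨conj_mem_of_norm hX hx.1, mul_mem (mul_mem hY hx.2.1) (inv_mem hY),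
      mul_mem (mul_mem hT hx.2.2.1) (inv_mem hT), fun y hy => ?_⟩
    have h1 := hx.2.2.2 _ (conj_mem_of_norm' hY hy)
    have h2 := conj_mem_of_norm hT h1
    have e : g * (x * (g⁻¹ * y * g) * x⁻¹ * (g⁻¹ * y * g)⁻¹) * g⁻¹
        = g * x * g⁻¹ * y * (g * x * g⁻¹)⁻¹ * y⁻¹ := by group
    rwa [e] at h2
  refine mem_norm_of (key g hX hY hT) fun x hx => ?_
  have := key g⁻¹ (inv_mem hX) (inv_mem hY) (inv_mem hT) x hx
  rwa [inv_inv] at this

theorem norm_K {P : ℕ → Subgroup G} {g : G} {i : ℕ}
    (h : ∀ j ≤ i, g ∈ normalizer (P j : Set G)) : g ∈ normalizer (K P i : Set G) := by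
  induction i with
  | zero =>
    show g ∈ normalizer ((⊥ : Subgroup G) : Set G)
    rw [Subgroup.normalizer_eq_top]
    exact mem_top _
  | succ i ih =>
    exact mem_norm_kerOn (h _ le_rfl) (h _ (Nat.le_succ _)) (ih fun j hj => h j (hj.trans (Nat.le_succ _)))

/-- kernels are mapped into kernels -/
theorem map_kerOn_le (f : G →* H) {X Y T : Subgroup G} {X' Y' T' : Subgroup H} (hX : X.map f = X')
    (hY : Y.map f = Y') (hT : T.map f ≤ T') (hXT : X' ≤ normalizer (T' : Set H)) :
    (kerOn X Y T).map f ≤ kerOn X' Y' T' := by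
  rintro _ ⟨x, hx, rfl⟩
  subst hX hY
  have hfx : f x ∈ X.map f := ⟨x, hx.1, rfl⟩
  refine ⟨hfx, ?_, hXT hfx, ?_⟩
  · refine mem_norm_of ?_ ?_
    · rintro _ ⟨y, hy, rfl⟩
      exact ⟨x * y * x⁻¹, conj_mem_of_norm hx.2.1 hy, by simp⟩
    · rintro _ ⟨y, hy, rfl⟩
      exact ⟨x⁻¹ * y * x, conj_mem_of_norm' hx.2.1 hy, by simp⟩
  · rintro _ ⟨y, hy, rfl⟩
    exact hT ⟨x * y * x⁻¹ * y⁻¹, hx.2.2.2 y hy, by simp⟩

end kernels

/-! ### lifting a tower -/

section lift

variable {G G' : Type*} [Group G] [Group G']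

theorem syl_of_sylow {p : ℕ} [Fact p.Prime] [Finite G] {L : Subgroup G} (S : Sylow p L) :
    Syl p ((S : Subgroup L).map L.subtype) L := by
  refine ⟨Subgroup.map_subtype_le _, S.2.map _, ?_⟩
  have e : ((S : Subgroup L).map L.subtype).relIndex L = (S : Subgroup L).index := by
    rw [Subgroup.relIndex, Subgroup.subgroupOf, Subgroup.comap_map_eq_self_of_injective L.subtype_injective]
  rw [e]
  exact S.not_dvd_index

/-- a Sylow subgroup maps onto a `p`-group image -/
theorem Syl.map_eq {p : ℕ} [Fact p.Prime] [Finite G] (f : G →* G') {S L : Subgroup G} (h : Syl p S L)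
    {R : Subgroup G'} (hR : L.map f = R) (hp : IsPGroup p R) : S.map f = R := by
  subst hR
  refine le_antisymm (Subgroup.map_mono h.le) ?_
  have h1 : ((S.subgroupOf L).map (f.subgroupMap L)).index ∣ (S.subgroupOf L).index :=
    Subgroup.index_map_dvd _ (f.subgroupMap_surjective L)
  haveI : Finite (L.map f) := Finite.of_surjective _ (f.subgroupMap_surjective L)
  obtain ⟨k, hk⟩ := hp.index ((S.subgroupOf L).map (f.subgroupMap L))
  have h2 : ((S.subgroupOf L).map (f.subgroupMap L)).index = 1 := by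
    rcases Nat.eq_zero_or_pos k with rfl | hk0
    · rw [hk, pow_zero]
    · exfalso
      refine h.idx ?_
      exact (dvd_pow_self p hk0.ne').trans (hk ▸ h1)
  rw [Subgroup.index_eq_one] at h2
  rintro _ ⟨x, hx, rfl⟩
  have h3 : (f.subgroupMap L) ⟨x, hx⟩ ∈ (S.subgroupOf L).map (f.subgroupMap L) := by
    rw [h2]; exact mem_top _
  obtain ⟨y, hy, hxy⟩ := h3
  exact ⟨y, hy, congrArg Subtype.val hxy⟩

theorem mem_norm_comap (f : G →* G') {R : Subgroup G'} {g : G} (h : f g ∈ normalizer (R : Set G')) :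
    g ∈ normalizer ((R.comap f : Subgroup G) : Set G) := by
  refine mem_norm_of (fun a ha => ?_) fun a ha => ?_
  · show f (g * a * g⁻¹) ∈ R
    rw [map_mul, map_mul, map_inv]
    exact conj_mem_of_norm h ha
  · show f (g⁻¹ * a * g) ∈ R
    rw [map_mul, map_mul, map_inv]
    exact conj_mem_of_norm' h ha

theorem mem_norm_inf {A B : Subgroup G} {g : G} (h1 : g ∈ normalizer (A : Set G))
    (h2 : g ∈ normalizer (B : Set G)) : g ∈ normalizer ((A ⊓ B : Subgroup G) : Set G) :=
  mem_norm_of (fun _ ha => ⟨conj_mem_of_norm h1 ha.1, conj_mem_of_norm h2 ha.2⟩)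
    fun _ ha => ⟨conj_mem_of_norm' h1 ha.1, conj_mem_of_norm' h2 ha.2⟩

theorem lift_tower [Finite G] (f : G →* G') (A X : Subgroup G) (hXs : Group.IsSolvable X)
    (hcop : (Nat.card A).Coprime (Nat.card X)) (hker : f.ker ≤ X) (n : ℕ) :
    ∀ (H : Subgroup G) (P' : ℕ → Subgroup G') (p : ℕ → ℕ), A ≤ H → H ≤ normalizer (X : Set G) →
      (∀ j < n, P' j ≤ H.map f) → (∀ j < n, P' j ≤ X.map f) → (∀ j < n, (p j).Prime) →
      (∀ j < n, IsPGroup (p j) (P' j)) → (∀ i j, i < j → j < n → P' j ≤ normalizer (P' i : Set G')) →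
      (∀ j < n, A.map f ≤ normalizer (P' j : Set G')) →
      ∃ P : ℕ → Subgroup G, (∀ j < n, P j ≤ H ⊓ X) ∧ (∀ j < n, IsPGroup (p j) (P j)) ∧
        (∀ j < n, (P j).map f = P' j) ∧ (∀ i j, i < j → j < n → P j ≤ normalizer (P i : Set G)) ∧
        (∀ j < n, A ≤ normalizer (P j : Set G)) := by
  induction n with
  | zero =>
    intro H P' p _ _ _ _ _ _ _ _
    exact ⟨fun _ => ⊥, fun j hj => absurd hj (Nat.not_lt_zero j), fun j hj => absurd hj (Nat.not_lt_zero j),
      fun j hj => absurd hj (Nat.not_lt_zero j), fun i j _ hj => absurd hj (Nat.not_lt_zero j),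
      fun j hj => absurd hj (Nat.not_lt_zero j)⟩
  | succ n ih =>
    intro H P' p hAH hHX hPH hPX hp hpg hnorm hinv
    haveI : Fact (p 0).Prime := ⟨hp 0 (Nat.succ_pos n)⟩
    set L : Subgroup G := H ⊓ X ⊓ (P' 0).comap f with hL
    have hLX : L ≤ X := inf_le_left.trans inf_le_right
    have hLH : L ≤ H := inf_le_left.trans inf_le_left
    have hHL : ∀ g ∈ H, f g ∈ normalizer (P' 0 : Set G') → g ∈ normalizer (L : Set G) := fun g hg hf =>
      mem_norm_inf (mem_norm_inf (le_normalizer hg) (hHX hg)) (mem_norm_comap f hf)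
    have hAL : A ≤ normalizer (L : Set G) := fun a ha =>
      hHL a (hAH ha) (hinv 0 (Nat.succ_pos n) ⟨a, ha, rfl⟩)
    have hLf : L.map f = P' 0 := by
      apply le_antisymm
      · rintro _ ⟨x, hx, rfl⟩
        exact hx.2
      · intro x hx
        obtain ⟨h, hh, rfl⟩ := hPH 0 (Nat.succ_pos n) hx
        obtain ⟨y, hy, hxy⟩ := hPX 0 (Nat.succ_pos n) hx
        refine ⟨h, ⟨⟨hh, ?_⟩, hx⟩, rfl⟩
        have h1 : y⁻¹ * h ∈ f.ker := by rw [MonoidHom.mem_ker, map_mul, map_inv, hxy, inv_mul_cancel]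
        have h2 := X.mul_mem hy (hker h1)
        rwa [mul_inv_cancel_left] at h2
    have hcopL : (Nat.card A).Coprime (Nat.card L) :=
      Nat.Coprime.coprime_dvd_right (Subgroup.card_dvd_of_le hLX) hcop
    have hLs : Group.IsSolvable L := Group.isSolvable_of_isSolvable_injective (Subgroup.inclusion_injective hLX)
    obtain ⟨S', hS'⟩ := Cfsg.Agent.S0023.result A L hAL hcopL (Or.inr hLs) (p 0)
    set S : Subgroup G := (S' : Subgroup L).map L.subtype with hS
    have hSyl : Syl (p 0) S L := syl_of_sylow S'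
    have hSf : S.map f = P' 0 := Syl.map_eq f hSyl hLf (hpg 0 (Nat.succ_pos n))
    set H₁ : Subgroup G := H ⊓ (normalizer (P' 0 : Set G')).comap f ⊓ normalizer (S : Set G) with hH₁
    obtain ⟨P, hP1, hP2, hP3, hP4, hP5⟩ := ih H₁ (fun j => P' (j + 1)) (fun j => p (j + 1))
      (fun a ha => ⟨⟨hAH ha, hinv 0 (Nat.succ_pos n) ⟨a, ha, rfl⟩⟩, hS' ha⟩)
      ((inf_le_left.trans inf_le_left).trans hHX)
      (fun j hj => by
        intro x hx
        obtain ⟨h, hh, rfl⟩ := hPH (j + 1) (Nat.succ_lt_succ hj) hx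
        have h1 : f h ∈ normalizer (P' 0 : Set G') := hnorm 0 (j + 1) (Nat.succ_pos j) (Nat.succ_lt_succ hj) hx
        obtain ⟨m, hm, hmh⟩ := hSyl.frattini (hHL h hh h1)
        have h2 : f m ∈ S.map f := by rw [hSf, ← hLf]; exact ⟨m, hm, rfl⟩
        obtain ⟨s, hs, hsm⟩ := h2
        refine ⟨s⁻¹ * (m * h), ⟨⟨H.mul_mem (H.inv_mem (hLH (hSyl.le hs))) (H.mul_mem (hLH hm) hh), ?_⟩, ?_⟩, ?_⟩
        · show f (s⁻¹ * (m * h)) ∈ normalizer (P' 0 : Set G')
          rw [map_mul, map_mul, map_inv, hsm, inv_mul_cancel_left]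
          exact h1
        · exact Subgroup.mul_mem _ (Subgroup.inv_mem _ (le_normalizer hs)) hmh
        · rw [map_mul, map_mul, map_inv, hsm, inv_mul_cancel_left])
      (fun j hj => hPX _ (Nat.succ_lt_succ hj)) (fun j hj => hp _ (Nat.succ_lt_succ hj))
      (fun j hj => hpg _ (Nat.succ_lt_succ hj))
      (fun i j hij hj => hnorm _ _ (Nat.succ_lt_succ hij) (Nat.succ_lt_succ hj))
      (fun j hj => hinv _ (Nat.succ_lt_succ hj))
    refine ⟨fun j => match j with | 0 => S | j + 1 => P j, ?_, ?_, ?_, ?_, ?_⟩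
    · rintro (_ | j) hj
      · exact le_inf (hSyl.le.trans hLH) (hSyl.le.trans hLX)
      · exact (hP1 j (Nat.lt_of_succ_lt_succ hj)).trans
          (inf_le_inf_right _ (inf_le_left.trans inf_le_left))
    · rintro (_ | j) hj
      · exact hSyl.pg
      · exact hP2 j (Nat.lt_of_succ_lt_succ hj)
    · rintro (_ | j) hj
      · exact hSf
      · exact hP3 j (Nat.lt_of_succ_lt_succ hj)
    · rintro (_ | i) (_ | j) hij hj
      · exact absurd hij (Nat.lt_irrefl _)
      · exact (hP1 j (Nat.lt_of_succ_lt_succ hj)).trans (inf_le_left.trans inf_le_right)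
      · exact absurd hij (Nat.not_lt_zero _)
      · exact hP4 i j (Nat.lt_of_succ_lt_succ hij) (Nat.lt_of_succ_lt_succ hj)
    · rintro (_ | j) hj
      · exact hS'
      · exact hP5 j (Nat.lt_of_succ_lt_succ hj)

end lift

/-! ### existence of towers -/

section exist

open Cfsg.Agent.Lib.Cores

theorem centralizer_bot' {G : Type*} [Group G] : centralizer ((⊥ : Subgroup G) : Set G) = ⊤ := by
  rw [centralizer_eq_top_iff_subset]
  exact bot_le (a := center G)

/-- the subgroup `D / C_X(O_ℓ(X)) = O_ℓ(X / C_X(O_ℓ(X)))` -/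
theorem exists_D {G : Type*} [Group G] [Finite G] (X O : Subgroup G) (hX : X.Normal) (hO : O.Normal) (l : ℕ) :
    ∃ D : Subgroup G, D.Normal ∧ D ≤ X ∧ X ⊓ centralizer (O : Set G) ≤ D ∧
      (∀ x ∈ D, ∃ k : ℕ, x ^ l ^ k ∈ centralizer (O : Set G)) ∧
      ∀ N : Subgroup G, N.Normal → N ≤ X → (∀ x ∈ N, ∃ k : ℕ, x ^ l ^ k ∈ D) → N ≤ D := by
  classical
  let 𝒮 : Set (Subgroup G) := {D | D.Normal ∧ D ≤ X ∧ X ⊓ centralizer (O : Set G) ≤ D ∧
      (∀ x ∈ D, ∃ k : ℕ, x ^ l ^ k ∈ centralizer (O : Set G))}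
  have hne : 𝒮.Nonempty := ⟨X ⊓ centralizer (O : Set G), inferInstance, inf_le_left, le_rfl,
    fun x hx => ⟨0, by simpa using hx.2⟩⟩
  obtain ⟨D, hD⟩ := (Set.toFinite 𝒮).exists_maximal hne
  obtain ⟨hDn, hDX, hCD, hDk⟩ := hD.prop
  refine ⟨D, hDn, hDX, hCD, hDk, fun N hN hNX hNk => ?_⟩
  have h1 : N ⊔ D ∈ 𝒮 := by
    refine ⟨inferInstance, sup_le hNX hDX, hCD.trans le_sup_right, fun x hx => ?_⟩
    obtain ⟨a, ha, b, hb, rfl⟩ := mul_mem_of_norm (A := N) (B := D)
      (le_normalizer_of_normal : D ≤ normalizer (N : Set G)) hx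
    obtain ⟨k, hk⟩ := hNk a ha
    have h2 : (a * b) ^ l ^ k ∈ D := by
      rw [← QuotientGroup.eq_one_iff] at hk ⊢
      rw [QuotientGroup.mk_pow, QuotientGroup.mk_mul, (QuotientGroup.eq_one_iff b).mpr hb, mul_one,
        ← QuotientGroup.mk_pow]
      exact hk
    obtain ⟨j, hj⟩ := hDk _ h2
    refine ⟨k + j, ?_⟩
    rw [pow_add, pow_mul]
    exact hj
  exact le_sup_left.trans (hD.le_of_ge h1 le_sup_right)

theorem fchain_of_subsingleton {G : Type*} [Group G] [Subsingleton G] (m : ℕ) : FChain m G :=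
  ⟨fun _ => ⊤, Subsingleton.elim _ _, rfl, fun _ _ _ => le_rfl, fun _ => inferInstance,
      fun _ => ⟨0, le_rfl⟩⟩

/-- an element of order prime to `l` lies in a subgroup containing one of its `l`-power powers -/
theorem mem_of_pow_mem {G : Type*} [Group G] [Finite G] {C : Subgroup G} {x : G} {l k : ℕ}
    (h : x ^ l ^ k ∈ C) (hc : (orderOf x).Coprime l) : x ∈ C := by
  have h1 : (orderOf x).Coprime (l ^ k) := hc.pow_right k
  obtain ⟨n, hn⟩ := exists_pow_eq_self_of_coprime h1.symm
  rw [← hn]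
  exact C.pow_mem h n

theorem map_pCore_normal {G : Type*} [Group G] {X : Subgroup G} (hX : X.Normal) (l : ℕ) :
    ((pCore l X).map X.subtype).Normal := by
  have h1 : (pCore l X).Characteristic := pCore_characteristic l
  infer_instance

/-- **Existence of towers**: a solvable normal subgroup `X` without a chain of length `m` contains an `A`-invariant
tower of height `m + 1`, whose bottom prime is not `q` if `X` contains no nontrivial normal `q`-subgroup. -/
theorem exists_tower (m : ℕ) : ∀ {G : Type u} [Group G] [Finite G] (X A : Subgroup G) (q : ℕ), X.Normal →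
    Group.IsSolvable X → (Nat.card A).Coprime (Nat.card X) →
    (∀ N : Subgroup G, N.Normal → N ≤ X → IsPGroup q N → N = ⊥) → ¬ FChain m X →
    ∃ (P : ℕ → Subgroup G) (p : ℕ → ℕ), IsTower A P p (m + 1) ∧ (∀ i < m + 1, P i ≤ X) ∧ p 0 ≠ q := by
  induction m with
  | zero =>
    intro G _ _ X A q hX hXs hcop hq hF
    haveI := hXs
    have h0 : fittingSubgroup X ≠ ⊥ := by
      intro h
      have h1 := Cfsg.Agent.S0044.result (G := X)
      rw [h, centralizer_bot'] at h1
      exact hF (@fchain_zero X _ (Subgroup.subsingleton_iff.mp (subsingleton_of_bot_eq_top (top_le_iff.mp h1))))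
    obtain ⟨l, hl⟩ : ∃ l : Nat.Primes, pCore (l : ℕ) X ≠ ⊥ := by
      by_contra hcon
      push Not at hcon
      rw [fittingSubgroup_eq_iSup_pCore] at h0
      exact h0 (iSup_eq_bot.mpr hcon)
    haveI := map_pCore_normal hX (l : ℕ)
    have hO : ((pCore (l : ℕ) X).map X.subtype) ≠ ⊥ := by
      rwa [Ne, Subgroup.map_eq_bot_iff_of_injective _ X.subtype_injective]
    refine ⟨fun _ => (pCore (l : ℕ) X).map X.subtype, fun _ => l, ⟨fun _ _ => l.2, fun _ _ => (pCore_isPGroup _).map _,
      fun i hi => by omega, fun i j hij hj => by omega, fun _ _ => le_normalizer_of_normal, fun i hi h => ?_⟩,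
      fun _ _ => map_subtype_le _, fun hlq => ?_⟩
    · obtain rfl : i = 0 := by omega
      exact hO (le_bot_iff.mp h)
    · refine hO (hq _ inferInstance (map_subtype_le _) ?_)
      have hlq' : (l : ℕ) = q := hlq
      rw [← hlq']
      exact (pCore_isPGroup _).map _
  | succ m ih =>
    intro G _ _ X A q hX hXs hcop hq hF
    haveI := hXs
    choose D hDn hDX hCD hDk hDmax using fun l : ℕ =>
      exists_D X ((pCore l X).map X.subtype) hX (map_pCore_normal hX l) l
    -- some `X / D l` has no chain of length `m`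
    obtain ⟨l, hl, hlF⟩ : ∃ l : ℕ, l.Prime ∧ ¬ FChain m (X.map (QuotientGroup.mk' (D l))) := by
      by_contra hcon
      push Not at hcon
      obtain ⟨L, iL, f, hf, hf'⟩ := exists_prod (m := m) (fun l : ℕ => (D l).subgroupOf X) (Nat.card X).primeFactors
        (fun l hl => ⟨X.map (QuotientGroup.mk' (D l)), inferInstance, (QuotientGroup.mk' (D l)).subgroupMap X,
          hcon l (Nat.prime_of_mem_primeFactors hl), by
            intro x hx
            have h1 := congrArg Subtype.val (MonoidHom.mem_ker.mp hx)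
            rw [mem_subgroupOf]
            exact (QuotientGroup.eq_one_iff (x : G)).mp h1⟩)
      have hkf : f.ker ≤ fittingSubgroup X := by
        refine Cfsg.Agent.OddOrderLocal.Thm38.le_fittingSubgroup_of_acts f.ker inferInstance ?_
        intro p hp y hy hyp
        haveI : Fact p.Prime := ⟨hp⟩
        by_cases hpX : p ∣ Nat.card X
        · have h1 : (y : G) ∈ D p := hf' p (Nat.mem_primeFactors.mpr ⟨hp, hpX, Nat.card_pos.ne'⟩) hy
          obtain ⟨k, hk⟩ := hDk p _ h1
          refine mem_of_pow_mem (k := k) (l := p) ?_ hyp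
          rw [mem_centralizer_iff]
          intro z hz
          have h2 := mem_centralizer_iff.mp hk z ⟨z, hz, rfl⟩
          apply Subtype.ext
          simpa using h2
        · have h1 : pCore p X = ⊥ := by
            rw [eq_bot_iff_card]
            obtain ⟨n, hn⟩ := IsPGroup.iff_card.mp (pCore_isPGroup (G := X) p)
            rcases Nat.eq_zero_or_pos n with rfl | hn0
            · rw [hn, pow_zero]
            · exact absurd ((dvd_pow_self p hn0.ne').trans (hn ▸ card_subgroup_dvd_card _)) hpX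
          rw [h1, centralizer_bot']
          exact mem_top _
      have hnil : Group.IsNilpotent f.ker := by
        haveI : Group.IsNilpotent (fittingSubgroup X) := fittingSubgroup_isNilpotent
        exact Subgroup.isNilpotent_of_ker_le_center (Subgroup.inclusion hkf)
          (by rw [(MonoidHom.ker_eq_bot_iff _).mpr (Subgroup.inclusion_injective hkf)]; exact bot_le)
      exact hF (FChain.extend f hnil hf)
    haveI : Fact l.Prime := ⟨hl⟩
    haveI := hDn l
    set f : G →* G ⧸ D l := QuotientGroup.mk' (D l) with hfdef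
    have hfs : Function.Surjective f := QuotientGroup.mk'_surjective _
    have hfk : f.ker = D l := QuotientGroup.ker_mk' _
    set O : Subgroup G := (pCore l X).map X.subtype with hOdef
    haveI hOn : O.Normal := map_pCore_normal hX l
    have hOp : IsPGroup l O := (pCore_isPGroup _).map _
    have hOX : O ≤ X := map_subtype_le _
    -- the bottom level is not trivial
    have hO : O ≠ ⊥ := by
      intro h
      apply hlF
      have h1 : X ≤ D l := by
        refine le_trans (le_inf le_rfl ?_) (hCD l)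
        have h2 : (pCore l X).map X.subtype = ⊥ := h
        rw [h2, centralizer_bot']
        exact le_top
      have h2 : X.map f = ⊥ := by
        rw [← le_bot_iff, Subgroup.map_le_iff_le_comap, MonoidHom.comap_bot, hfk]
        exact h1
      haveI : Subsingleton (X.map f) := by rw [h2]; infer_instance
      exact fchain_of_subsingleton m
    -- the tower of the quotient
    obtain ⟨P', p', hT, hPX', hp0⟩ := ih (X.map f) (A.map f) l (hX.map f hfs)
      (Group.isSolvable_of_surjective (f.subgroupMap_surjective X))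
      (Nat.Coprime.coprime_dvd_left (Subgroup.card_map_dvd _ f) (Nat.Coprime.coprime_dvd_right (Subgroup.card_map_dvd _ f) hcop))
      (by
        intro N hN hNX hNp
        have h1 : N.comap f ≤ D l := by
          refine hDmax l _ (hN.comap f) ?_ ?_
          · refine (Subgroup.comap_mono hNX).trans ?_
            rw [Subgroup.comap_map_eq, hfk]
            exact sup_le le_rfl (hDX l)
          · intro x hx
            obtain ⟨k, hk⟩ := hNp ⟨f x, hx⟩
            refine ⟨k, ?_⟩
            have h2 : (f x) ^ l ^ k = 1 := congrArg Subtype.val hk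
            rw [← map_pow, ← MonoidHom.mem_ker, hfk] at h2
            exact h2
        rw [← Subgroup.map_comap_eq_self_of_surjective hfs N, ← le_bot_iff, Subgroup.map_le_iff_le_comap,
          MonoidHom.comap_bot, hfk]
        exact h1) hlF
    obtain ⟨P, hP1, hP2, hP3, hP4, hP5⟩ := lift_tower f A X hXs hcop (hfk.le.trans (hDX l)) (m + 1) ⊤ P' p' le_top
      (by rw [normalizer_eq_top]) (fun j _ => by rw [Subgroup.map_top_of_surjective f hfs]; exact le_top)
      hPX' hT.prime hT.pgroup hT.norm hT.inv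
    -- the new tower
    set Q : ℕ → Subgroup G := fun j => match j with | 0 => O | j + 1 => P j with hQ
    have hQK : ∀ j < m + 1, (K Q (j + 1)).map f ≤ K P' j := by
      intro j
      induction j with
      | zero =>
        intro _
        show (K Q 1).map f ≤ ⊥
        rw [Subgroup.map_le_iff_le_comap, MonoidHom.comap_bot, hfk]
        intro x hx
        refine hCD l ⟨(hP1 0 (Nat.succ_pos m) hx.1).2, ?_⟩
        show x ∈ centralizer (O : Set G)
        rw [mem_centralizer_iff]
        intro y hy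
        have h1 : x * y * x⁻¹ * y⁻¹ = 1 := hx.2.2.2 y hy
        rw [mul_inv_eq_one, mul_inv_eq_iff_eq_mul] at h1
        exact h1.symm
      | succ j ihj =>
        intro hj
        refine map_kerOn_le f (hP3 _ hj) (hP3 _ (by omega)) (ihj (by omega)) ?_
        intro x hx
        exact norm_K fun i hi => hT.norm i (j + 1) (by omega) hj hx
    refine ⟨Q, fun j => match j with | 0 => l | j + 1 => p' j, ⟨?_, ?_, ?_, ?_, ?_, ?_⟩, ?_, ?_⟩
    · rintro (_ | j) hj
      · exact hl
      · exact hT.prime j (Nat.lt_of_succ_lt_succ hj)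
    · rintro (_ | j) hj
      · exact hOp
      · exact hP2 j (Nat.lt_of_succ_lt_succ hj)
    · rintro (_ | j) hj
      · exact hp0
      · exact hT.ne j (Nat.lt_of_succ_lt_succ hj)
    · rintro (_ | i) (_ | j) hij hj
      · exact absurd hij (Nat.lt_irrefl _)
      · exact le_normalizer_of_normal
      · exact absurd hij (Nat.not_lt_zero _)
      · exact hP4 i j (Nat.lt_of_succ_lt_succ hij) (Nat.lt_of_succ_lt_succ hj)
    · rintro (_ | j) hj
      · exact le_normalizer_of_normal
      · exact hP5 j (Nat.lt_of_succ_lt_succ hj)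
    · rintro (_ | j) hj h
      · exact hO (le_bot_iff.mp h)
      · refine hT.nontriv j (Nat.lt_of_succ_lt_succ hj) ?_
        rw [← hP3 j (Nat.lt_of_succ_lt_succ hj)]
        exact (Subgroup.map_mono h).trans (hQK j (Nat.lt_of_succ_lt_succ hj))
    · rintro (_ | j) hj
      · exact hOX
      · exact (hP1 j (Nat.lt_of_succ_lt_succ hj)).trans inf_le_right
    · intro hlq
      have hlq' : l = q := hlq
      subst hlq'
      exact hO (hq O hOn hOX hOp)

end exist

end Cfsg.Agent.H987.Tower
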