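import Mathlib
import Cfsg.Agent.S0026
import Cfsg.Agent.S0027
import Cfsg.Agent.H987.TowerT1

/-!
# Towers and chains; minimal towers
-/

set_option autoImplicit false
set_option linter.style.haveILetI false

open Subgroup Cfsg
open scoped commutatorElement

namespace Cfsg.Agent.H987.Tower

open Cfsg.Agent.H575.Chain Cfsg.Agent.H258.Sub

universe u

variable {G : Type*} [Group G]

/-! ### commutators -/

theorem commutator_le_left' {A B : Subgroup G} (h : B ≤ normalizer (A : Set G)) : ⁅A, B⁆ ≤ A := by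
  rw [commutator_le]
  intro a ha b hb
  have h1 := conj_mem_of_norm (h hb) (A.inv_mem ha)
  have e : ⁅a, b⁆ = a * (b * a⁻¹ * b⁻¹) := by rw [commutatorElement_def]; group
  rw [e]
  exact A.mul_mem ha h1

theorem commutator_le_right' {A B : Subgroup G} (h : A ≤ normalizer (B : Set G)) : ⁅A, B⁆ ≤ B := by
  rw [commutator_comm]; exact commutator_le_left' h

theorem mem_norm_commutator {A B : Subgroup G} {g : G} (hA : g ∈ normalizer (A : Set G))
    (hB : g ∈ normalizer (B : Set G)) : g ∈ normalizer ((⁅A, B⁆ : Subgroup G) : Set G) := by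
  have key : ∀ g : G, g ∈ normalizer (A : Set G) → g ∈ normalizer (B : Set G) →
      ∀ x ∈ ⁅A, B⁆, g * x * g⁻¹ ∈ ⁅A, B⁆ := by
    intro g hA hB x hx
    have h1 : ⁅A, B⁆ ≤ (⁅A, B⁆).comap (MulAut.conj g).toMonoidHom := by
      rw [commutator_le]
      intro a ha b hb
      show g * ⁅a, b⁆ * g⁻¹ ∈ ⁅A, B⁆
      rw [conjugate_commutatorElement]
      exact commutator_mem_commutator (conj_mem_of_norm hA ha) (conj_mem_of_norm hB hb)
    exact h1 hx
  refine mem_norm_of (key g hA hB) fun x hx => ?_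
  have := key g⁻¹ (inv_mem hA) (inv_mem hB) x hx
  rwa [inv_inv] at this

theorem le_norm_commutator_left (A B : Subgroup G) (h : A ≤ normalizer (B : Set G)) :
    A ≤ normalizer ((⁅A, B⁆ : Subgroup G) : Set G) := fun _ ha => mem_norm_commutator (le_normalizer ha) (h ha)

theorem coprime_card_of_isPGroup {p q : ℕ} (hp : p.Prime) (hq : q.Prime) (hpq : p ≠ q)
    {A B : Subgroup G} [Finite G] (hA : IsPGroup p A) (hB : IsPGroup q B) :
    (Nat.card A).Coprime (Nat.card B) := by
  haveI := Fact.mk hp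
  haveI := Fact.mk hq
  obtain ⟨a, ha⟩ := IsPGroup.iff_card.mp hA
  obtain ⟨b, hb⟩ := IsPGroup.iff_card.mp hB
  rw [ha, hb]
  exact Nat.Coprime.pow _ _ ((Nat.coprime_primes hp hq).mpr hpq)

theorem isSolvable_of_isPGroup {p : ℕ} (hp : p.Prime) {A : Subgroup G} [Finite G] (hA : IsPGroup p A) :
    Group.IsSolvable A := by
  haveI := Fact.mk hp
  haveI := hA.isNilpotent
  infer_instance

/-! ### towers against chains -/

/-- a tower in a subgroup with a chain of length `n` has height at most `n` -/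
theorem le_K_of_fchain [Finite G] {n : ℕ} {C : Subgroup G} (h : FChain n C) (Z : ℕ → Subgroup G) (p : ℕ → ℕ)
    (hZC : ∀ i ≤ n, Z i ≤ C) (hp : ∀ i ≤ n, (p i).Prime) (hpg : ∀ i ≤ n, IsPGroup (p i) (Z i))
    (hne : ∀ i < n, p (i + 1) ≠ p i) (hnorm : ∀ i j, i < j → j ≤ n → Z j ≤ normalizer (Z i : Set G)) :
    Z n ≤ K Z n := by
  obtain ⟨F, h0, h1, h2, h3, h4⟩ := h
  set E : ℕ → Subgroup G := fun i => if hi : i < n + 1 then (F ⟨i, hi⟩).map C.subtype else ⊤ with hE
  have hE0 : E 0 = ⊥ := by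
    have h5 : F ⟨0, Nat.succ_pos n⟩ = ⊥ := h0
    simp only [hE, Nat.succ_pos n, dif_pos, h5, Subgroup.map_bot]
  have hEn : E n = C := by
    have h5 : F ⟨n, Nat.lt_succ_self n⟩ = ⊤ := h1
    simp only [hE, Nat.lt_succ_self n, dif_pos, h5, ← MonoidHom.range_eq_map, range_subtype]
  have hEC : ∀ i ≤ n, C ≤ normalizer (E i : Set G) := by
    intro i hi
    have hi' : i < n + 1 := Nat.lt_succ_of_le hi
    simp only [hE, hi', dif_pos]
    refine le_norm_of ?_
    rintro c hc _ ⟨x, hx, rfl⟩
    exact ⟨⟨c, hc⟩ * x * ⟨c, hc⟩⁻¹, (h3 ⟨i, hi'⟩).conj_mem x hx ⟨c, hc⟩, rfl⟩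
  have hEs : ∀ i < n, ∃ k, (E (i + 1)).lowerCentralSeries k ≤ E i := by
    intro i hi
    obtain ⟨k, hk⟩ := h4 ⟨i, hi⟩
    refine ⟨k, ?_⟩
    have a1 : i < n + 1 := hi.trans (Nat.lt_succ_self n)
    have a2 : i + 1 < n + 1 := Nat.succ_lt_succ hi
    simp only [hE, a1, a2, dif_pos]
    rw [← Subgroup.map_lowerCentralSeries]
    exact Subgroup.map_mono hk
  have key : ∀ i ≤ n, Z i ⊓ E i ≤ K Z i := by
    intro i
    induction i with
    | zero => intro _; rw [hE0]; exact inf_le_right
    | succ i ih =>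
      intro hi
      have hin : i < n := hi
      have ih' := ih hin.le
      rintro x ⟨hxZ, hxE⟩
      have hxN : ∀ j ≤ i, x ∈ normalizer (Z j : Set G) := fun j hj => hnorm j (i + 1) (by omega) hi hxZ
      have hxl : zpowers x ≤ Z (i + 1) := zpowers_le.mpr hxZ
      have hAK : zpowers x ≤ normalizer (Z i : Set G) := zpowers_le.mpr (hxN i le_rfl)
      have hcop : (Nat.card (zpowers x)).Coprime (Nat.card (Z i)) :=
        coprime_card_of_isPGroup (hp _ hi) (hp _ hin.le) (hne i hin) ((hpg _ hi).to_le hxl) (hpg _ hin.le)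
      have hsol : Group.IsSolvable (Z i) := isSolvable_of_isPGroup (hp _ hin.le) (hpg _ hin.le)
      have hR := Cfsg.Agent.S0027.result (zpowers x) (Z i) hAK hcop (Or.inr hsol)
      set R := ⁅Z i, zpowers x⁆ with hRdef
      have hxE' : zpowers x ≤ E (i + 1) := zpowers_le.mpr hxE
      have hRE : R ≤ E (i + 1) := by
        refine (commutator_mono le_rfl hxE').trans ?_
        exact commutator_le_right' ((hZC i hin.le).trans (hEC _ hi))
      have hlcs : ∀ k, R ≤ (E (i + 1)).lowerCentralSeries k := by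
        intro k
        induction k with
        | zero => exact hRE
        | succ k ihk =>
          rw [Subgroup.lowerCentralSeries_succ, ← hR]
          exact commutator_mono ihk hxE'
      obtain ⟨k, hk⟩ := hEs i hin
      have hRi : R ≤ K Z i := (le_inf (commutator_le_left' hAK) ((hlcs k).trans hk)).trans ih'
      refine ⟨hxZ, hxN i le_rfl, norm_K hxN, fun y hy => ?_⟩
      apply hRi
      rw [hRdef, commutator_comm, ← commutatorElement_def]
      exact commutator_mem_commutator (mem_zpowers x) hy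
  have := key n le_rfl
  rw [hEn] at this
  exact (le_inf le_rfl (hZC n le_rfl)).trans this

end Cfsg.Agent.H987.Tower
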