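import Mathlib
import Cfsg.Agent.H987.TowerT2

/-!
# Minimal towers
-/

set_option autoImplicit false
set_option linter.style.haveILetI false

open Subgroup Cfsg
open scoped commutatorElement

namespace Cfsg.Agent.H987.Tower

open Cfsg.Agent.H575.Chain Cfsg.Agent.H258.Sub

variable {G : Type*} [Group G]

/-! ### elements centralised modulo `T` -/

/-- the elements of `X` normalising `T` and centralised by `B` modulo `T` -/
def centOn (X B T : Subgroup G) : Subgroup G where
  carrier := {x | x ∈ X ∧ x ∈ normalizer (T : Set G) ∧ ∀ y ∈ B, ⁅x, y⁆ ∈ T}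
  one_mem' := ⟨one_mem _, one_mem _, fun y _ => by simp [one_mem]⟩
  mul_mem' := by
    rintro a b ⟨ha1, ha2, ha3⟩ ⟨hb1, hb2, hb3⟩
    refine ⟨mul_mem ha1 hb1, mul_mem ha2 hb2, fun y hy => ?_⟩
    have h1 := mul_mem (conj_mem_of_norm ha2 (hb3 y hy)) (ha3 y hy)
    have e : a * ⁅b, y⁆ * a⁻¹ * ⁅a, y⁆ = ⁅a * b, y⁆ := by
      simp only [commutatorElement_def]; group
    rwa [e] at h1
  inv_mem' := by
    rintro a ⟨ha1, ha2, ha3⟩
    refine ⟨inv_mem ha1, inv_mem ha2, fun y hy => ?_⟩
    have h1 := conj_mem_of_norm' ha2 (inv_mem (ha3 y hy))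
    have e : a⁻¹ * ⁅a, y⁆⁻¹ * a = ⁅a⁻¹, y⁆ := by
      simp only [commutatorElement_def]; group
    rwa [e] at h1

theorem centOn_le (X B T : Subgroup G) : centOn X B T ≤ X := fun _ hx => hx.1

theorem commutator_centOn_le (X B T : Subgroup G) : ⁅centOn X B T, B⁆ ≤ T := by
  rw [commutator_le]
  exact fun x hx y hy => hx.2.2 y hy

theorem le_centOn {X B T Q : Subgroup G} (h1 : Q ≤ X) (h2 : Q ≤ normalizer (T : Set G)) (h3 : ⁅Q, B⁆ ≤ T) :
    Q ≤ centOn X B T := fun _ hx => ⟨h1 hx, h2 hx, fun _ hy => h3 (commutator_mem_commutator hx hy)⟩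

theorem mem_norm_centOn {X B T : Subgroup G} {g : G} (hX : g ∈ normalizer (X : Set G))
    (hB : g ∈ normalizer (B : Set G)) (hT : g ∈ normalizer (T : Set G)) :
    g ∈ normalizer ((centOn X B T : Subgroup G) : Set G) := by
  have key : ∀ g : G, g ∈ normalizer (X : Set G) → g ∈ normalizer (B : Set G) → g ∈ normalizer (T : Set G) →
      ∀ x ∈ centOn X B T, g * x * g⁻¹ ∈ centOn X B T := by
    rintro g hX hB hT x ⟨h1, h2, h3⟩
    refine ⟨conj_mem_of_norm hX h1, mul_mem (mul_mem hT h2) (inv_mem hT), fun y hy => ?_⟩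
    have h4 := conj_mem_of_norm hT (h3 _ (conj_mem_of_norm' hB hy))
    have e : g * ⁅x, g⁻¹ * y * g⁆ * g⁻¹ = ⁅g * x * g⁻¹, y⁆ := by
      simp only [commutatorElement_def]; group
    rwa [e] at h4
  refine mem_norm_of (key g hX hB hT) fun x hx => ?_
  have := key g⁻¹ (inv_mem hX) (inv_mem hB) (inv_mem hT) x hx
  rwa [inv_inv] at this

/-! ### basic facts on towers -/

section basic

variable {A : Subgroup G} {P : ℕ → Subgroup G} {p : ℕ → ℕ} {h : ℕ}

theorem norm_K_of_lt (hn : ∀ i j, i < j → j < h → P j ≤ normalizer (P i : Set G)) {i j : ℕ} (hij : i ≤ j)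
    (hj : j < h) : P j ≤ normalizer (K P i : Set G) := by
  intro x hx
  refine norm_K fun l hl => ?_
  rcases Nat.lt_or_ge l j with hlj | hlj
  · exact hn l j hlj hj hx
  · have : l = j := by omega
    subst this
    exact le_normalizer hx

theorem norm_K_A (hA : ∀ i < h, A ≤ normalizer (P i : Set G)) {i : ℕ} (hi : i < h) :
    A ≤ normalizer (K P i : Set G) := fun _ hx => norm_K fun l hl => hA l (by omega) hx

/-- membership in the next kernel -/
theorem le_K_succ (hn : ∀ i j, i < j → j < h → P j ≤ normalizer (P i : Set G)) {i : ℕ} (hi : i + 1 < h)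
    (hc : ⁅P i, P (i + 1)⁆ ≤ K P i) : P (i + 1) ≤ K P (i + 1) := by
  intro x hx
  refine ⟨hx, hn i (i + 1) (Nat.lt_succ_self i) hi hx, norm_K_of_lt hn (Nat.le_succ i) hi hx, fun y hy => ?_⟩
  apply hc
  rw [commutator_comm, ← commutatorElement_def]
  exact commutator_mem_commutator hx hy

theorem commutator_le_of_le_K {i : ℕ} (h1 : P (i + 1) ≤ K P (i + 1)) : ⁅P i, P (i + 1)⁆ ≤ K P i := by
  rw [commutator_comm, commutator_le]
  intro x hx y hy
  rw [commutatorElement_def]
  exact (h1 hx).2.2.2 y hy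

theorem K_congr {P P' : ℕ → Subgroup G} {i : ℕ} (h : ∀ j ≤ i, P' j = P j) : K P' i = K P i := by
  induction i with
  | zero => rfl
  | succ i ih =>
    show kerOn (P' (i + 1)) (P' i) (K P' i) = kerOn (P (i + 1)) (P i) (K P i)
    rw [h _ le_rfl, h _ (Nat.le_succ _), ih fun j hj => h j (by omega)]

end basic

/-! ### minimal towers -/

/-- a tower of height `h` in which no `P i` can be replaced by a smaller subgroup -/
structure IsMin (A : Subgroup G) (P : ℕ → Subgroup G) (p : ℕ → ℕ) (h : ℕ) : Prop extends IsTower A P p h where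
  comm : ∀ i, i + 1 < h → ⁅P i, P (i + 1)⁆ = P i
  min : ∀ i, i + 1 < h → ∀ Q : Subgroup G, Q < P i → A ≤ normalizer (Q : Set G) →
    (∀ j, i < j → j < h → P j ≤ normalizer (Q : Set G)) → ⁅Q, P (i + 1)⁆ ≤ K P i
  top : ∀ i, i + 1 = h → ∀ Q : Subgroup G, Q < P i → A ≤ normalizer (Q : Set G) → Q ≤ K P i

section min

variable [Finite G] {A : Subgroup G} {P : ℕ → Subgroup G} {p : ℕ → ℕ} {h : ℕ}

theorem exists_minimal_tower (hT : IsTower A P p h) : ∃ P₀ : ℕ → Subgroup G, IsTower A P₀ p h ∧
    (∀ i < h, P₀ i ≤ P i) ∧ ∀ P' : ℕ → Subgroup G, IsTower A P' p h → (∀ i < h, P' i ≤ P₀ i) →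
      ∀ i < h, P' i = P₀ i := by
  classical
  have hex : ∃ N : ℕ, ∃ P₀ : ℕ → Subgroup G, IsTower A P₀ p h ∧ (∀ i < h, P₀ i ≤ P i) ∧
      (∑ i ∈ Finset.range h, Nat.card (P₀ i)) = N := ⟨_, P, hT, fun _ _ => le_rfl, rfl⟩
  obtain ⟨P₀, h1, h2, h3⟩ := Nat.find_spec hex
  refine ⟨P₀, h1, h2, fun P' hP' hle i hi => ?_⟩
  by_contra hne
  have h4 := Nat.find_min' hex ⟨P', hP', fun i hi => (hle i hi).trans (h2 i hi), rfl⟩
  rw [← h3] at h4
  refine absurd h4 (not_le.mpr ?_)
  refine Finset.sum_lt_sum (fun j hj => Subgroup.card_le_of_le (hle j (Finset.mem_range.mp hj)))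
    ⟨i, Finset.mem_range.mpr hi, ?_⟩
  exact lt_of_le_of_ne (Subgroup.card_le_of_le (hle i hi)) fun e =>
    hne (Subgroup.eq_of_le_of_card_ge (hle i hi) e.ge)

/-- what happens if `P i` is replaced by `Q` -/
theorem replace (hT : IsTower A P p h) (hmin : ∀ P' : ℕ → Subgroup G, IsTower A P' p h → (∀ i < h, P' i ≤ P i) →
      ∀ i < h, P' i = P i) {i : ℕ} (hi : i < h) (hcomm : ∀ j, i < j → j + 1 < h → ⁅P j, P (j + 1)⁆ = P j)
    {Q : Subgroup G} (hQ : Q < P i) (hQA : A ≤ normalizer (Q : Set G))
    (hQP : ∀ j, i < j → j < h → P j ≤ normalizer (Q : Set G)) :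
    Q ≤ K P i ∨ (i + 1 < h ∧ ⁅Q, P (i + 1)⁆ ≤ K P i) := by
  classical
  set P' : ℕ → Subgroup G := fun j => if j = i then Q else P j with hP'
  have e1 : P' i = Q := if_pos rfl
  have e2 : ∀ {j}, j ≠ i → P' j = P j := fun hj => if_neg hj
  have hle : ∀ j, P' j ≤ P j := by
    intro j
    by_cases hj : j = i
    · subst hj; rw [e1]; exact hQ.le
    · rw [e2 hj]
  have hnorm : ∀ a b, a < b → b < h → P' b ≤ normalizer (P' a : Set G) := by
    intro a b hab hb
    by_cases ha : a = i
    · subst ha
      rw [e1, e2 (by omega)]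
      exact hQP b hab hb
    · rw [e2 ha]
      exact (hle b).trans (hT.norm a b hab hb)
  have hnot : ¬ IsTower A P' p h := by
    intro hcon
    have := hmin P' hcon (fun j _ => hle j) i hi
    rw [e1] at this
    exact hQ.ne this
  have hfail : ∃ j, j < h ∧ P' j ≤ K P' j := by
    by_contra hcon
    push Not at hcon
    refine hnot ⟨hT.prime, fun j hj => (hT.pgroup j hj).to_le (hle j), hT.ne, hnorm, ?_, hcon⟩
    intro j hj
    by_cases hji : j = i
    · subst hji; rw [e1]; exact hQA
    · rw [e2 hji]; exact hT.inv j hj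
  have hKi : K P' i ≤ K P i := by
    cases i with
    | zero => exact bot_le
    | succ i =>
      have e3 : K P' i = K P i := K_congr fun j hj => e2 (by omega)
      rintro x ⟨h1, h2, h3, h4⟩
      rw [e2 (by omega : i ≠ i + 1)] at h2 h4
      rw [e3] at h3 h4
      exact ⟨hle _ h1, h2, h3, h4⟩
  obtain ⟨hj, hjK⟩ := Nat.find_spec hfail
  have hfirst := fun l (hl : l < Nat.find hfail) => Nat.find_min hfail hl
  set j := Nat.find hfail with hjdef
  rcases lt_trichotomy j i with hji | hji | hji
  · exfalso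
    have e3 : K P' j = K P j := K_congr fun l hl => e2 (by omega)
    rw [e2 (by omega), e3] at hjK
    exact hT.nontriv j hj hjK
  · left
    rw [hji, e1] at hjK
    exact hjK.trans hKi
  · right
    rcases Nat.eq_or_lt_of_le (Nat.succ_le_of_lt hji) with hji' | hji'
    · have hji'' : j = i + 1 := hji'.symm
      refine ⟨by omega, ?_⟩
      rw [hji''] at hjK
      have h2 := commutator_le_of_le_K hjK
      rw [e1, e2 (by omega)] at h2
      exact h2.trans hKi
    · exfalso
      obtain ⟨k, hk⟩ : ∃ k, j = k + 1 := ⟨j - 1, by omega⟩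
      have hki : i < k := by omega
      rw [hk] at hjK
      have h2 := commutator_le_of_le_K hjK
      rw [e2 (by omega : k ≠ i), e2 (by omega : k + 1 ≠ i), hcomm k hki (by omega)] at h2
      refine hfirst k (by omega) ⟨by omega, ?_⟩
      rw [e2 (by omega : k ≠ i)]
      exact h2

theorem isMin_of_minimal (hT : IsTower A P p h) (hmin : ∀ P' : ℕ → Subgroup G, IsTower A P' p h →
      (∀ i < h, P' i ≤ P i) → ∀ i < h, P' i = P i) : IsMin A P p h := by
  have hcomm : ∀ d i, i + 1 + d = h → i + 1 < h → ⁅P i, P (i + 1)⁆ = P i := by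
    intro d
    induction d using Nat.strong_induction_on with
    | _ d ih =>
      intro i hid hi
      by_contra hne
      have hc : ∀ j, i < j → j + 1 < h → ⁅P j, P (j + 1)⁆ = P j := fun j hij hj =>
        ih (h - (j + 1)) (by omega) j (by omega) hj
      have hle : ⁅P i, P (i + 1)⁆ ≤ P i := commutator_le_left' (hT.norm i (i + 1) (Nat.lt_succ_self i) hi)
      have hcop : (Nat.card (P (i + 1))).Coprime (Nat.card (P i)) :=
        coprime_card_of_isPGroup (hT.prime _ hi) (hT.prime _ (by omega)) (hT.ne i hi) (hT.pgroup _ hi)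
          (hT.pgroup _ (by omega))
      have hsol : Group.IsSolvable (P i) := isSolvable_of_isPGroup (hT.prime _ (by omega)) (hT.pgroup i (by omega))
      have hR := Cfsg.Agent.S0027.result (P (i + 1)) (P i) (hT.norm i (i + 1) (Nat.lt_succ_self i) hi) hcop (Or.inr hsol)
      rcases replace hT hmin (i := i) (by omega) hc (Q := ⁅P i, P (i + 1)⁆) (lt_of_le_of_ne hle hne)
        (fun a ha => mem_norm_commutator (hT.inv i (by omega) ha) (hT.inv _ hi ha))
        (fun j hij hj x hx => by
          refine mem_norm_commutator (hT.norm i j hij hj hx) ?_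
          rcases Nat.eq_or_lt_of_le (Nat.succ_le_of_lt hij) with h1 | h1
          · have h1' : j = i + 1 := h1.symm
            rw [h1'] at hx; exact le_normalizer hx
          · exact hT.norm (i + 1) j h1 hj hx) with h1 | ⟨-, h1⟩
      · exact hT.nontriv _ hi (le_K_succ hT.norm hi h1)
      · rw [hR] at h1
        exact hT.nontriv _ hi (le_K_succ hT.norm hi h1)
  have hcomm' : ∀ i, i + 1 < h → ⁅P i, P (i + 1)⁆ = P i := fun i hi => hcomm (h - (i + 1)) i (by omega) hi
  refine ⟨hT, hcomm', ?_, ?_⟩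
  · intro i hi Q hQ hQA hQP
    rcases replace hT hmin (i := i) (by omega) (fun j _ hj => hcomm' j hj) hQ hQA hQP with h1 | ⟨-, h1⟩
    · refine (commutator_mono h1 le_rfl).trans ?_
      exact commutator_le_left' (norm_K_of_lt hT.norm (Nat.le_succ i) hi)
    · exact h1
  · intro i hi Q hQ hQA
    rcases replace hT hmin (i := i) (by omega) (fun j _ hj => hcomm' j hj) hQ hQA (fun j hij hj => by omega) with
      h1 | ⟨h2, -⟩
    · exact h1
    · omega

/-- **minimal towers exist** -/
theorem exists_isMin (hT : IsTower A P p h) : ∃ P₀ : ℕ → Subgroup G, IsMin A P₀ p h ∧ ∀ i < h, P₀ i ≤ P i := by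
  obtain ⟨P₀, h1, h2, h3⟩ := exists_minimal_tower hT
  exact ⟨P₀, isMin_of_minimal h1 h3, h2⟩

end min

/-! ### consequences -/

section cons

variable [Finite G] {A : Subgroup G} {P : ℕ → Subgroup G} {p : ℕ → ℕ} {h : ℕ}

/-- above the last level on which `A` acts nontrivially, `A` centralises the tower -/
theorem IsMin.le_centralizer (hM : IsMin A P p h) (hcop : ∀ i < h, (Nat.card A).Coprime (Nat.card (P i)))
    {k : ℕ} (hk : ∀ l, k ≤ l → l < h → ⁅P l, A⁆ ≤ K P l) :
    ∀ l, k ≤ l → l < h → P l ≤ centralizer (A : Set G) := by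
  have key : ∀ d l, l + d = h → k ≤ l → l < h → P l ≤ centralizer (A : Set G) := by
    intro d
    induction d using Nat.strong_induction_on with
    | _ d ih =>
      intro l hld hkl hl
      have ih' : ∀ j, l < j → j < h → P j ≤ centralizer (A : Set G) := fun j hlj hj =>
        ih (h - j) (by omega) j (by omega) (by omega) hj
      have hsol : Group.IsSolvable (P l) := isSolvable_of_isPGroup (hM.prime _ hl) (hM.pgroup l hl)
      have hfac := Cfsg.Agent.S0026.result A (P l) (hM.inv l hl) (hcop l hl) (Or.inr hsol)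
      by_contra hne
      set Q := P l ⊓ centralizer (A : Set G) with hQdef
      have hQ : Q < P l := lt_of_le_of_ne inf_le_left fun e => hne (e ▸ inf_le_right)
      have hQA : A ≤ normalizer (Q : Set G) := by
        intro a ha
        refine mem_norm_of ?_ ?_
        · intro x hx
          have h1 := mem_centralizer_iff.mp hx.2 a ha
          have e : a * x * a⁻¹ = x := by rw [h1]; group
          rw [e]; exact hx
        · intro x hx
          have h1 := mem_centralizer_iff.mp hx.2 a ha
          have e : a⁻¹ * x * a = x := by rw [mul_assoc, ← h1]; group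
          rw [e]; exact hx
      have hQP : ∀ j, l < j → j < h → P j ≤ normalizer (Q : Set G) := fun j hlj hj x hx =>
        mem_norm_inf (hM.norm l j hlj hj hx) (le_normalizer (ih' j hlj hj hx))
      rcases Nat.eq_or_lt_of_le (Nat.succ_le_of_lt hl) with h1 | h1
      · have h2 := hM.top l h1 Q hQ hQA
        apply hM.nontriv l hl
        rw [← hfac]
        exact sup_le (hk l hkl hl) h2
      · have h2 := hM.min l h1 Q hQ hQA hQP
        have h3 : P (l + 1) ≤ normalizer (K P l : Set G) := norm_K_of_lt hM.norm (Nat.le_succ l) h1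
        have h4 : P l ≤ centOn (P l) (P (l + 1)) (K P l) := by
          have hN : P l ≤ normalizer (K P l : Set G) := norm_K_of_lt hM.norm le_rfl hl
          conv_lhs => rw [← hfac]
          refine sup_le ?_ (le_centOn inf_le_left (inf_le_left.trans hN) h2)
          refine le_centOn ((hk l hkl hl).trans (K_le P l)) (((hk l hkl hl).trans (K_le P l)).trans hN) ?_
          exact (commutator_mono (hk l hkl hl) le_rfl).trans (commutator_le_left' h3)
        apply hM.nontriv (l + 1) h1
        refine le_K_succ hM.norm h1 ?_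
        exact (commutator_mono h4 le_rfl).trans (commutator_centOn_le _ _ _)
  exact fun l hkl hl => key (h - l) l (by omega) hkl hl

/-- the last level on which `A` acts nontrivially -/
theorem IsMin.commutator_eq (hM : IsMin A P p h) (hcop : ∀ i < h, (Nat.card A).Coprime (Nat.card (P i)))
    {k : ℕ} (hk : k < h) (hc : ∀ l, k < l → l < h → P l ≤ centralizer (A : Set G)) (hk1 : ¬ ⁅P k, A⁆ ≤ K P k) :
    ⁅P k, A⁆ = P k := by
  have hsol : Group.IsSolvable (P k) := isSolvable_of_isPGroup (hM.prime _ hk) (hM.pgroup k hk)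
  have hfac := Cfsg.Agent.S0026.result A (P k) (hM.inv k hk) (hcop k hk) (Or.inr hsol)
  have hle : ⁅P k, A⁆ ≤ P k := commutator_le_left' (hM.inv k hk)
  have hN : P k ≤ normalizer (K P k : Set G) := norm_K_of_lt hM.norm le_rfl hk
  by_contra hne
  have hR : ⁅P k, A⁆ < P k := lt_of_le_of_ne hle hne
  have hRA : A ≤ normalizer ((⁅P k, A⁆ : Subgroup G) : Set G) := fun a ha =>
    mem_norm_commutator (hM.inv k hk ha) (le_normalizer ha)
  have hcA : ∀ x ∈ centralizer (A : Set G), x ∈ normalizer (A : Set G) := by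
    intro x hx
    refine mem_norm_of ?_ ?_
    · intro a ha
      have h1 := mem_centralizer_iff.mp hx a ha
      have e : x * a * x⁻¹ = a := by rw [← h1]; group
      rw [e]; exact ha
    · intro a ha
      have h1 := mem_centralizer_iff.mp hx a ha
      have e : x⁻¹ * a * x = a := by rw [mul_assoc, h1]; group
      rw [e]; exact ha
  have hRP : ∀ j, k < j → j < h → P j ≤ normalizer ((⁅P k, A⁆ : Subgroup G) : Set G) := fun j hkj hj x hx =>
    mem_norm_commutator (hM.norm k j hkj hj hx) (hcA x (hc j hkj hj hx))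
  rcases Nat.eq_or_lt_of_le (Nat.succ_le_of_lt hk) with h1 | h1
  · exact hk1 (hM.top k h1 _ hR hRA)
  · have h2 := hM.min k h1 _ hR hRA hRP
    set Q := P k ⊓ centralizer (A : Set G) with hQdef
    have hQ : Q < P k := by
      refine lt_of_le_of_ne inf_le_left fun e => hk1 ?_
      have h3 : P k ≤ centralizer (A : Set G) := e ▸ inf_le_right
      rw [Subgroup.commutator_eq_bot_iff_le_centralizer.mpr h3]
      exact bot_le
    have hQA : A ≤ normalizer (Q : Set G) := by
      intro a ha
      refine mem_norm_of ?_ ?_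
      · intro x hx
        have h1 := mem_centralizer_iff.mp hx.2 a ha
        have e : a * x * a⁻¹ = x := by rw [h1]; group
        rw [e]; exact hx
      · intro x hx
        have h1 := mem_centralizer_iff.mp hx.2 a ha
        have e : a⁻¹ * x * a = x := by rw [mul_assoc, ← h1]; group
        rw [e]; exact hx
    have hQP : ∀ j, k < j → j < h → P j ≤ normalizer (Q : Set G) := fun j hkj hj x hx =>
      mem_norm_inf (hM.norm k j hkj hj hx) (le_normalizer (hc j hkj hj hx))
    have h3 := hM.min k h1 Q hQ hQA hQP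
    have h4 : P k ≤ centOn (P k) (P (k + 1)) (K P k) := by
      conv_lhs => rw [← hfac]
      exact sup_le (le_centOn hle (hle.trans hN) h2) (le_centOn inf_le_left (inf_le_left.trans hN) h3)
    apply hM.nontriv (k + 1) h1
    refine le_K_succ hM.norm h1 ?_
    exact (commutator_mono h4 le_rfl).trans (commutator_centOn_le _ _ _)

end cons

end Cfsg.Agent.H987.Tower
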