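import Mathlib
import Cfsg.Agent.H987.TowerT3
import Cfsg.Agent.H575.Tower

/-!
# Comparison with `Cfsg.Agent.H575.Tower`
-/

set_option autoImplicit false
set_option linter.style.haveILetI false

open Subgroup Cfsg
open scoped commutatorElement

namespace Cfsg.Agent.H987.Tower

open Cfsg.Agent.H575.Chain

universe u

section

variable {G : Type*} [Group G] {A : Subgroup G} {P : ℕ → Subgroup G} {p : ℕ → ℕ} {n : ℕ}

theorem ker_eq (hn : ∀ i j, i ≤ j → j < n → P j ≤ normalizer (P i : Set G)) :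
    ∀ i < n, Cfsg.Agent.H575.Tower.ker P i = K P i := by
  intro i
  induction i with
  | zero => intro _; rfl
  | succ i ih =>
    intro hi
    have e := ih (by omega)
    apply le_antisymm
    · rintro x ⟨h1, h2, h3⟩
      rw [e] at h2 h3
      exact ⟨h1, hn i (i + 1) (Nat.le_succ i) hi h1, h2, h3⟩
    · rintro x ⟨h1, -, h2, h3⟩
      rw [← e] at h2 h3
      exact ⟨h1, h2, h3⟩

theorem isTower_iff : Cfsg.Agent.H575.Tower.IsTower A P p n ↔ IsTower A P p n := by
  constructor
  · intro h
    refine ⟨h.prime, h.pgroup, fun i hi => (h.ne i hi).symm, fun i j hij hj => h.norm i j hij.le hj, h.inv,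
      fun i hi => ?_⟩
    rw [← ker_eq h.norm i hi]
    exact h.nontriv i hi
  · intro h
    have hn : ∀ i j, i ≤ j → j < n → P j ≤ normalizer (P i : Set G) := by
      intro i j hij hj
      rcases Nat.eq_or_lt_of_le hij with rfl | hlt
      · exact le_normalizer
      · exact h.norm i j hlt hj
    refine ⟨h.prime, h.pgroup, fun i hi => (h.ne i hi).symm, hn, h.inv, fun i hi => ?_⟩
    rw [ker_eq hn i hi]
    exact h.nontriv i hi

end

/-- **T1** for `H575.Tower.IsTower` -/
theorem exists_tower575 {G : Type u} [Group G] [Finite G] (m : ℕ) (X A : Subgroup G) (hX : X.Normal)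
    (hs : Group.IsSolvable X) (hcop : (Nat.card A).Coprime (Nat.card X)) (hF : ¬ FChain m X) :
    ∃ (P : ℕ → Subgroup G) (p : ℕ → ℕ), Cfsg.Agent.H575.Tower.IsTower A P p (m + 1) ∧ (∀ i < m + 1, P i ≤ X) := by
  obtain ⟨q, hqX, hq⟩ := Nat.exists_infinite_primes (Nat.card X + 1)
  obtain ⟨P, p, h1, h2, -⟩ := exists_tower m X A q hX hs hcop (by
    intro N _ hNX hNp
    rw [eq_bot_iff_card]
    haveI := Fact.mk hq
    obtain ⟨n, hn⟩ := IsPGroup.iff_card.mp hNp
    rcases Nat.eq_zero_or_pos n with rfl | hn0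
    · rw [hn, pow_zero]
    · exfalso
      have h1 : q ∣ Nat.card X := ((dvd_pow_self q hn0.ne').trans (hn ▸ dvd_rfl)).trans (Subgroup.card_dvd_of_le hNX)
      exact absurd (Nat.le_of_dvd Nat.card_pos h1) (by omega)) hF
  exact ⟨P, p, isTower_iff.mpr h1, h2⟩

end Cfsg.Agent.H987.Tower
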