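import Mathlib
import Cfsg.Agent.H987.TowerT3
import Cfsg.Agent.H231.Rel
import Cfsg.Agent.Lib.CoprimeAbelian
import Cfsg.Agent.Lib.FrattiniPGroup

/-!
# The sections of a minimal tower
-/

set_option autoImplicit false
set_option linter.style.haveILetI false
set_option linter.unusedSectionVars false

open Subgroup Cfsg
open scoped commutatorElement

namespace Cfsg.Agent.H987.Tower

open Cfsg.Agent.H575.Chain Cfsg.Agent.H258.Sub Cfsg.Agent.H231

variable {G : Type*} [Group G]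

/-- the image of `A` in `N(T)/T` -/
theorem card_rq_dvd [Finite G] {T V : Subgroup G} (hV : V ≤ normalizer (T : Set G)) :
    Nat.card (rq T V) ∣ Nat.card V := by
  unfold rq
  refine (Subgroup.card_map_dvd _ _).trans ?_
  rw [Nat.card_congr (Subgroup.subgroupOfEquivOfLe hV).toEquiv]

theorem rq_le_normalizer {T A V : Subgroup G} (hA : A ≤ normalizer (V : Set G)) :
    rq T A ≤ normalizer (rq T V : Set (↥(normalizer (T : Set G)) ⧸ T.subgroupOf (normalizer (T : Set G)))) := by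
  refine le_norm_of ?_
  rintro _ ⟨a, ha, rfl⟩ _ ⟨x, hx, rfl⟩
  have h1 : (a : G) * x * (a : G)⁻¹ ∈ V := conj_mem_of_norm (hA ha) hx
  exact ⟨a * x * a⁻¹, h1, by simp⟩

theorem mem_rq_iff {T A : Subgroup G} (hTA : T ≤ A) {x : G} (hx : x ∈ normalizer (T : Set G)) :
    (QuotientGroup.mk' (T.subgroupOf (normalizer (T : Set G))) ⟨x, hx⟩) ∈ rq T A ↔ x ∈ A := by
  constructor
  · rintro ⟨y, hy, hxy⟩
    rw [QuotientGroup.mk'_apply, QuotientGroup.mk'_apply, QuotientGroup.eq] at hxy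
    have h1 : (y : G)⁻¹ * x ∈ T := hxy
    have h2 : (y : G) * ((y : G)⁻¹ * x) ∈ A := A.mul_mem hy (hTA h1)
    rwa [mul_inv_cancel_left] at h2
  · intro h
    exact ⟨⟨x, hx⟩, h, rfl⟩

theorem mk_eq_one_iff {T : Subgroup G} {x : G} (hx : x ∈ normalizer (T : Set G)) :
    (QuotientGroup.mk' (T.subgroupOf (normalizer (T : Set G))) ⟨x, hx⟩) = 1 ↔ x ∈ T := by
  rw [← MonoidHom.mem_ker, QuotientGroup.ker_mk', mem_subgroupOf]

/-- If `V = [V, Q]` with a coprime action and `V` is abelian modulo `E`, then `Q` has no fixed points on `V` modulo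
`E`. -/
theorem mem_of_centralised [Finite G] {V Q E : Subgroup G} (hQV : Q ≤ normalizer (V : Set G))
    (hcop : (Nat.card Q).Coprime (Nat.card V)) (hVQ : ⁅V, Q⁆ = V) (hVE : V ≤ normalizer (E : Set G))
    (hQE : Q ≤ normalizer (E : Set G)) (hab : ⁅V, V⁆ ≤ E) {x : G} (hx : x ∈ V)
    (hxQ : ∀ y ∈ Q, ⁅x, y⁆ ∈ E) : x ∈ E := by
  have h1 : ⁅rq E V, rq E Q⁆ = rq E V := by
    rw [← rq_commutator hVE hQE, hVQ]
  have h2 : ∀ x ∈ rq E V, ∀ y ∈ rq E V, x * y = y * x := by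
    have h3 : ⁅rq E V, rq E V⁆ = ⊥ := by
      rw [← rq_commutator hVE hVE, rq_eq_bot_iff (hab.trans le_normalizer)]
      exact hab
    intro x hx y hy
    have h4 : ⁅x, y⁆ ∈ (⊥ : Subgroup _) := h3 ▸ commutator_mem_commutator hx hy
    rwa [mem_bot, commutatorElement_eq_one_iff_mul_comm] at h4
  have h3 := Cfsg.Agent.Lib.CoprimeAbelian.inf_commutator_eq_bot (rq E Q) (rq E V) h2 (rq_le_normalizer hQV)
    (Nat.Coprime.coprime_dvd_left (card_rq_dvd hQE) (Nat.Coprime.coprime_dvd_right (card_rq_dvd hVE) hcop))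
  have hxE := hVE hx
  rw [← mk_eq_one_iff hxE, ← mem_bot, ← h3, h1]
  refine ⟨⟨⟨_, hx, rfl⟩, ?_⟩, ⟨_, hx, rfl⟩⟩
  refine mem_centralizer_iff.mpr ?_
  rintro _ ⟨y, hy, rfl⟩
  have h5 : ⁅x, (y : G)⁆ ∈ E := hxQ y hy
  have h6 : (QuotientGroup.mk' (E.subgroupOf (normalizer (E : Set G)))) ⁅(⟨x, hxE⟩ : ↥(normalizer (E : Set G))), y⁆ = 1 := by
    rw [← MonoidHom.mem_ker, QuotientGroup.ker_mk', mem_subgroupOf]
    exact h5
  rw [map_commutatorElement, commutatorElement_eq_one_iff_mul_comm] at h6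
  exact h6.symm

/-- a coprime automorphism group trivial on `V / F` and on `F / T` is trivial on `V / T` -/
theorem commutator_le_of_two_steps [Finite G] {V Q F T : Subgroup G} (hQV : Q ≤ normalizer (V : Set G))
    (hcop : (Nat.card Q).Coprime (Nat.card V)) (hs : Group.IsSolvable V) (h1 : ⁅V, Q⁆ ≤ F) (h2 : ⁅F, Q⁆ ≤ T) :
    ⁅V, Q⁆ ≤ T := by
  rw [← Cfsg.Agent.S0027.result Q V hQV hcop (Or.inr hs)]
  exact (commutator_mono h1 le_rfl).trans h2

section

variable [Finite G] {A : Subgroup G} {P : ℕ → Subgroup G} {p : ℕ → ℕ} {h : ℕ}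

/-- the preimage of the Frattini subgroup of `P i / K i` (`i + 1 < h`) -/
def Phi (P : ℕ → Subgroup G) (i : ℕ) : Subgroup G := centOn (P i) (P (i + 1)) (K P i)

theorem Phi_le (P : ℕ → Subgroup G) (i : ℕ) : Phi P i ≤ P i := centOn_le _ _ _

theorem IsMin.K_le_Phi (hM : IsMin A P p h) {i : ℕ} (hi : i + 1 < h) : K P i ≤ Phi P i :=
  le_centOn (K_le P i) le_normalizer (commutator_le_left' (norm_K_of_lt hM.norm (Nat.le_succ i) hi))

theorem Phi_commutator_le (P : ℕ → Subgroup G) (i : ℕ) : ⁅Phi P i, P (i + 1)⁆ ≤ K P i := commutator_centOn_le _ _ _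

theorem IsMin.coprime (hM : IsMin A P p h) {i : ℕ} (hi : i + 1 < h) :
    (Nat.card (P (i + 1))).Coprime (Nat.card (P i)) :=
  coprime_card_of_isPGroup (hM.prime _ hi) (hM.prime _ (by omega)) (hM.ne i hi) (hM.pgroup _ hi)
    (hM.pgroup _ (by omega))

theorem IsMin.solv (hM : IsMin A P p h) {i : ℕ} (hi : i < h) : Group.IsSolvable (P i) :=
  isSolvable_of_isPGroup (hM.prime _ hi) (hM.pgroup i hi)

theorem IsMin.norm_le (hM : IsMin A P p h) {i j : ℕ} (hij : i ≤ j) (hj : j < h) :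
    P j ≤ normalizer (P i : Set G) := by
  rcases Nat.eq_or_lt_of_le hij with rfl | hlt
  · exact le_normalizer
  · exact hM.norm i j hlt hj

/-- an invariant proper subgroup of `P i` lies in `Phi P i` -/
theorem IsMin.le_Phi (hM : IsMin A P p h) {i : ℕ} (hi : i + 1 < h) {Q : Subgroup G} (hQ : Q < P i)
    (hQA : A ≤ normalizer (Q : Set G)) (hQP : ∀ j, i < j → j < h → P j ≤ normalizer (Q : Set G)) : Q ≤ Phi P i :=
  le_centOn hQ.le (hQ.le.trans (norm_K_of_lt hM.norm le_rfl (by omega))) (hM.min i hi Q hQ hQA hQP)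

theorem IsMin.Phi_ne (hM : IsMin A P p h) {i : ℕ} (hi : i + 1 < h) : Phi P i < P i := by
  refine lt_of_le_of_ne (Phi_le P i) fun e => ?_
  have h1 := Phi_commutator_le P i
  rw [e] at h1
  exact hM.nontriv _ hi (le_K_succ hM.norm hi h1)

/-- the Frattini part -/
theorem IsMin.frattini_aux (hM : IsMin A P p h) {i : ℕ} (hi : i + 1 < h) :
    ∃ F : Subgroup G, F ≤ Phi P i ∧ K P i ≤ F ∧ ⁅P i, P i⁆ ≤ F ∧ (∀ x ∈ P i, x ^ p i ∈ F) ∧ P i ≤ normalizer (F : Set G) ∧
      P (i + 1) ≤ normalizer (F : Set G) := by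
  have hil : i < h := by omega
  haveI : Fact (p i).Prime := ⟨hM.prime i hil⟩
  have hpg : IsPGroup (p i) (P i) := hM.pgroup i hil
  set F₁ : Subgroup G := (frattini (P i)).map (P i).subtype with hF₁
  have hchar : (frattini (P i)).Characteristic := inferInstance
  have hnorm : normalizer (P i : Set G) ≤ normalizer (F₁ : Set G) :=
    Cfsg.Agent.OddOrderLocal.FittingHall.normalizer_le_normalizer_map (P i) _ hchar
  have hKn : ∀ j, i ≤ j → j < h → P j ≤ normalizer (K P i : Set G) := fun j hij hj => norm_K_of_lt hM.norm hij hj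
  have hFn : ∀ j, i ≤ j → j < h → P j ≤ normalizer ((F₁ ⊔ K P i : Subgroup G) : Set G) := fun j hij hj =>
    le_normalizer_sup ((hM.norm_le hij hj).trans hnorm) (hKn j hij hj)
  have hlt : F₁ ⊔ K P i < P i := by
    refine lt_of_le_of_ne (sup_le (map_subtype_le _) (K_le P i)) fun e => ?_
    have h1 : (K P i).subgroupOf (P i) ⊔ frattini (P i) = ⊤ := by
      apply Subgroup.map_injective (P i).subtype_injective
      rw [Subgroup.map_sup, Subgroup.map_subgroupOf_eq_of_le (K_le P i), sup_comm, e, ← MonoidHom.range_eq_map,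
        range_subtype]
    have h2 := frattini_nongenerating h1
    rw [subgroupOf_eq_top] at h2
    exact hM.nontriv i hil h2
  refine ⟨F₁ ⊔ K P i, hM.le_Phi hi hlt (le_normalizer_sup ((hM.inv i hil).trans hnorm) (norm_K_A hM.inv hil))
    (fun j hij hj => hFn j hij.le hj), le_sup_right, ?_, ?_, hFn i le_rfl hil, hFn (i + 1) (Nat.le_succ i) hi⟩
  · refine le_trans ?_ le_sup_left
    rw [commutator_le]
    intro x hx y hy
    exact ⟨⁅⟨x, hx⟩, ⟨y, hy⟩⁆, Cfsg.Agent.Lib.FrattiniPGroup.commutator_mem_frattini hpg _ _, rfl⟩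
  · intro x hx
    exact mem_sup_left ⟨⟨x, hx⟩ ^ p i, Cfsg.Agent.Lib.FrattiniPGroup.pow_mem_frattini hpg _, rfl⟩

/-- `Phi P i` lies in every `E ⊇ [P i, P i] K i` normalised by `P i` and `P (i + 1)` -/
theorem IsMin.Phi_le_of (hM : IsMin A P p h) {i : ℕ} (hi : i + 1 < h) {E : Subgroup G} (hKE : K P i ≤ E)
    (hab : ⁅P i, P i⁆ ≤ E) (h1 : P i ≤ normalizer (E : Set G)) (h2 : P (i + 1) ≤ normalizer (E : Set G)) :
    Phi P i ≤ E := fun _ hx =>
  mem_of_centralised (hM.norm i (i + 1) (Nat.lt_succ_self i) hi) (hM.coprime hi) (hM.comm i hi) h1 h2 hab hx.1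
    fun y hy => hKE (hx.2.2 y hy)

theorem IsMin.commutator_le_Phi (hM : IsMin A P p h) {i : ℕ} (hi : i + 1 < h) : ⁅P i, P i⁆ ≤ Phi P i := by
  obtain ⟨F, h1, -, h3, -⟩ := hM.frattini_aux hi
  exact h3.trans h1

theorem IsMin.pow_mem_Phi (hM : IsMin A P p h) {i : ℕ} (hi : i + 1 < h) {x : G} (hx : x ∈ P i) :
    x ^ p i ∈ Phi P i := by
  obtain ⟨F, h1, -, -, h4, -⟩ := hM.frattini_aux hi
  exact h1 (h4 x hx)

/-- `Phi P i / K i` is central in `P i / K i` -/
theorem IsMin.Phi_central (hM : IsMin A P p h) {i : ℕ} (hi : i + 1 < h) : ⁅P i, Phi P i⁆ ≤ K P i := by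
  have hil : i < h := by omega
  obtain ⟨F, h1, h2, h3, h4, h5, h6⟩ := hM.frattini_aux hi
  have hF : Phi P i = F := le_antisymm (hM.Phi_le_of hi h2 h3 h5 h6) h1
  have hn1 : P i ≤ normalizer (K P i : Set G) := norm_K_of_lt hM.norm le_rfl hil
  have hn2 : P (i + 1) ≤ normalizer (K P i : Set G) := norm_K_of_lt hM.norm (Nat.le_succ i) hi
  have hn3 : F ≤ normalizer (K P i : Set G) := (h1.trans (Phi_le P i)).trans hn1
  have h7 : ⁅F, P (i + 1)⁆ ≤ K P i := by rw [← hF]; exact Phi_commutator_le P i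
  have key := three_subgroups (P := K P i) (A := P i) (B := P (i + 1)) (C := F) hn1 hn2 hn3
    (by
      rw [commutator_comm (P (i + 1)) F]
      exact (commutator_mono h7 le_rfl).trans (commutator_le_left' hn1))
    ((commutator_mono (commutator_le_left' h5) le_rfl).trans h7)
  rw [hM.comm i hi, ← hF] at key
  exact key

theorem IsMin.norm_Phi (hM : IsMin A P p h) {i j : ℕ} (hi : i + 1 < h) (hij : i ≤ j) (hj : j < h) :
    P j ≤ normalizer (Phi P i : Set G) := by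
  have hil : i < h := by omega
  rcases Nat.eq_or_lt_of_le hij with rfl | hlt
  · refine le_norm_of fun b hb a ha => ?_
    have h1 : ⁅b, a⁆ ∈ K P i := hM.Phi_central hi (commutator_mem_commutator hb ha)
    have e : b * a * b⁻¹ = ⁅b, a⁆ * a := by rw [commutatorElement_def]; group
    rw [e]
    exact mul_mem (hM.K_le_Phi hi h1) ha
  · intro x hx
    refine mem_norm_centOn (hM.norm i j hlt hj hx) ?_ (norm_K_of_lt hM.norm hij hj hx)
    exact hM.norm_le (Nat.succ_le_of_lt hlt) hj hx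

theorem IsMin.norm_Phi_A (hM : IsMin A P p h) {i : ℕ} (hi : i + 1 < h) :
    A ≤ normalizer (Phi P i : Set G) := fun _ hx =>
  mem_norm_centOn (hM.inv i (by omega) hx) (hM.inv _ hi hx) (norm_K_A hM.inv (by omega) hx)

/-- irreducibility of `P i / Phi P i` -/
theorem IsMin.eq_of_between (hM : IsMin A P p h) {i : ℕ} (hi : i + 1 < h) {Q : Subgroup G} (h1 : Phi P i ≤ Q)
    (h2 : Q ≤ P i) (hQA : A ≤ normalizer (Q : Set G)) (hQP : ∀ j, i < j → j < h → P j ≤ normalizer (Q : Set G)) :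
    Q = Phi P i ∨ Q = P i := by
  by_cases e : Q = P i
  · exact Or.inr e
  · exact Or.inl (le_antisymm (hM.le_Phi hi (lt_of_le_of_ne h2 e) hQA hQP) h1)

/-- `Phi P i = [P i, P i] K i` -/
theorem IsMin.Phi_eq (hM : IsMin A P p h) {i : ℕ} (hi : i + 1 < h) : Phi P i = ⁅P i, P i⁆ ⊔ K P i := by
  have hil : i < h := by omega
  refine le_antisymm (hM.Phi_le_of hi le_sup_right le_sup_left ?_ ?_) (sup_le (hM.commutator_le_Phi hi) (hM.K_le_Phi hi))
  · exact le_normalizer_sup (le_normalizer_commutator le_normalizer le_normalizer) (norm_K_of_lt hM.norm le_rfl hil)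
  · exact le_normalizer_sup (le_normalizer_commutator (hM.norm_le (Nat.le_succ i) hi) (hM.norm_le (Nat.le_succ i) hi))
      (norm_K_of_lt hM.norm (Nat.le_succ i) hi)

/-- the abelian case -/
theorem IsMin.Phi_eq_K (hM : IsMin A P p h) {i : ℕ} (hi : i + 1 < h) (hab : ⁅P i, P i⁆ ≤ K P i) :
    Phi P i = K P i := by
  rw [hM.Phi_eq hi]
  exact sup_eq_right.mpr hab

/-- `Phi P i / K i` is elementary abelian -/
theorem IsMin.pow_mem_K (hM : IsMin A P p h) {i : ℕ} (hi : i + 1 < h) {x : G} (hx : x ∈ Phi P i) :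
    x ^ p i ∈ K P i := by
  have hil : i < h := by omega
  have hn1 : P i ≤ normalizer (K P i : Set G) := norm_K_of_lt hM.norm le_rfl hil
  set N := normalizer (K P i : Set G) with hN
  set π : N →* N ⧸ (K P i).subgroupOf N := QuotientGroup.mk' _ with hπ
  have hone : ∀ (y : G) (hy : y ∈ N), π ⟨y, hy⟩ = 1 ↔ y ∈ K P i := fun y hy => mk_eq_one_iff hy
  -- commuting
  have hcen : ∀ (a b : G) (ha : a ∈ P i) (hb : b ∈ Phi P i), Commute (π ⟨a, hn1 ha⟩) (π ⟨b, hn1 (Phi_le P i hb)⟩) := by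
    intro a b ha hb
    have h1 : ⁅a, b⁆ ∈ K P i := hM.Phi_central hi (commutator_mem_commutator ha hb)
    have h2 : π ⁅(⟨a, hn1 ha⟩ : N), ⟨b, hn1 (Phi_le P i hb)⟩⁆ = 1 := (hone _ (mul_mem (mul_mem (mul_mem (hn1 ha)
      (hn1 (Phi_le P i hb))) (inv_mem (hn1 ha))) (inv_mem (hn1 (Phi_le P i hb))))).mpr h1
    rw [map_commutatorElement, commutatorElement_eq_one_iff_mul_comm] at h2
    exact h2
  -- the subgroup of elements whose `p`-th power is in `K`
  have key : ⁅P i, P i⁆ ≤ Phi P i := hM.commutator_le_Phi hi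
  have hcl : ∀ y ∈ ⁅P i, P i⁆, ∀ hy : y ∈ N, (π ⟨y, hy⟩) ^ p i = 1 := by
    intro y hy
    have hmem : y ∈ closure {g | ∃ g₁ ∈ P i, ∃ g₂ ∈ P i, ⁅g₁, g₂⁆ = g} := hy
    clear hy
    induction hmem using Subgroup.closure_induction with
    | mem y hy' =>
      obtain ⟨a, ha, b, hb, rfl⟩ := hy'
      intro hyN
      have e : π ⟨⁅a, b⁆, hyN⟩ = ⁅π ⟨a, hn1 ha⟩, π ⟨b, hn1 hb⟩⁆ := by
        rw [← map_commutatorElement]; rfl
      have hc : ⁅a, b⁆ ∈ Phi P i := key (commutator_mem_commutator ha hb)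
      have h1 : Commute (π ⟨a, hn1 ha⟩) ⁅π ⟨a, hn1 ha⟩, π ⟨b, hn1 hb⟩⁆ := by
        have := hcen a _ ha hc
        rw [← e]; exact this
      have h2 : ⁅π ⟨a, hn1 ha⟩ ^ p i, π ⟨b, hn1 hb⟩⁆ = 1 := by
        rw [commutatorElement_eq_one_iff_mul_comm, ← map_pow]
        exact (hcen b _ hb (hM.pow_mem_Phi hi ha)).symm
      have h3 : ∀ n : ℕ, ⁅π ⟨a, hn1 ha⟩ ^ n, π ⟨b, hn1 hb⟩⁆ = ⁅π ⟨a, hn1 ha⟩, π ⟨b, hn1 hb⟩⁆ ^ n := by
        intro n
        induction n with
        | zero => simp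
        | succ n ihn =>
          have e1 : ⁅π ⟨a, hn1 ha⟩ ^ (n + 1), π ⟨b, hn1 hb⟩⁆ = π ⟨a, hn1 ha⟩ *
              ⁅π ⟨a, hn1 ha⟩ ^ n, π ⟨b, hn1 hb⟩⁆ * (π ⟨a, hn1 ha⟩)⁻¹ * ⁅π ⟨a, hn1 ha⟩, π ⟨b, hn1 hb⟩⁆ := by
            simp only [commutatorElement_def, pow_succ']
            group
          rw [e1, ihn, (h1.pow_right n).eq, mul_inv_cancel_right, pow_succ]
      rw [e, ← h3, h2]
    | one =>
      intro hyN
      have : (⟨1, hyN⟩ : N) = 1 := rfl
      rw [this, map_one, one_pow]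
    | mul a b ha hb iha ihb =>
      intro hyN
      have ha' : a ∈ ⁅P i, P i⁆ := ha
      have hb' : b ∈ ⁅P i, P i⁆ := hb
      have haP : a ∈ P i := Phi_le P i (key ha')
      have hbP : b ∈ P i := Phi_le P i (key hb')
      have e : (⟨a * b, hyN⟩ : N) = ⟨a, hn1 haP⟩ * ⟨b, hn1 hbP⟩ := rfl
      rw [e, map_mul, (hcen a b haP (key hb')).mul_pow, iha (hn1 haP), ihb (hn1 hbP), one_mul]
    | inv a ha iha =>
      intro hyN
      have ha' : a ∈ ⁅P i, P i⁆ := ha
      have haP : a ∈ P i := Phi_le P i (key ha')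
      have e : (⟨a⁻¹, hyN⟩ : N) = ⟨a, hn1 haP⟩⁻¹ := rfl
      rw [e, map_inv, inv_pow, iha (hn1 haP), inv_one]
  rw [hM.Phi_eq hi] at hx
  obtain ⟨a, ha, b, hb, rfl⟩ := mul_mem_of_norm (A := ⁅P i, P i⁆) (B := K P i)
    ((K_le P i).trans (le_normalizer_commutator le_normalizer le_normalizer)) hx
  have haP : a ∈ P i := Phi_le P i (key ha)
  have hbP : b ∈ P i := K_le P i hb
  have h1 : (π (⟨a, hn1 haP⟩ * ⟨b, hn1 hbP⟩)) ^ p i = 1 := by
    rw [map_mul, (hone b (hn1 hbP)).mpr hb, mul_one]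
    exact hcl a ha (hn1 haP)
  rw [← map_pow] at h1
  exact (hone ((a * b) ^ p i) _).mp h1

/-- a subgroup of `P (i + 1)` trivial on `P i / Phi P i` lies in `K P (i + 1)` -/
theorem IsMin.le_K_of_Phi (hM : IsMin A P p h) {i : ℕ} (hi : i + 1 < h) {Q : Subgroup G} (hQ : Q ≤ P (i + 1))
    (h1 : ⁅P i, Q⁆ ≤ Phi P i) : Q ≤ K P (i + 1) := by
  have hil : i < h := by omega
  have hQV : Q ≤ normalizer (P i : Set G) := hQ.trans (hM.norm_le (Nat.le_succ i) hi)
  have h2 : ⁅P i, Q⁆ ≤ K P i := by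
    refine commutator_le_of_two_steps hQV ?_ (hM.solv hil) h1 ?_
    · exact Nat.Coprime.coprime_dvd_left (Subgroup.card_dvd_of_le hQ) (hM.coprime hi)
    · exact (commutator_mono le_rfl hQ).trans (Phi_commutator_le P i)
  intro x hx
  refine ⟨hQ hx, hQV hx, norm_K_of_lt hM.norm (Nat.le_succ i) hi (hQ hx), fun y hy => ?_⟩
  apply h2
  rw [commutator_comm, ← commutatorElement_def]
  exact commutator_mem_commutator hx hy

end

end Cfsg.Agent.H987.Tower
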